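import Mathlib

set_option autoImplicit false

namespace Cfsg.Agent.Lib.Helper43

open Module Polynomial

/-- Over a finite field the commutant of a semisimple endomorphism of a nonzero space contains elements of
every determinant (norm surjectivity on a simple summand). -/
theorem exists_commuting_det {K V : Type*} [Field K] [Finite K] [AddCommGroup V] [Module K V]
    [FiniteDimensional K V] [Nontrivial V]
    (f : Module.End K V) (hf : f.IsSemisimple) (δ : K) :
    ∃ c : V →ₗ[K] V, (∀ v, c (f v) = f (c v)) ∧ LinearMap.det c = δ := by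
  have hss : IsSemisimpleModule K[X] (Module.AEval' f) := hf
  have hnt : Nontrivial (Module.AEval' f) := (Module.AEval'.of f).symm.toEquiv.nontrivial
  obtain ⟨U, hU⟩ := IsSemisimpleModule.exists_simple_submodule K[X] (Module.AEval' f)
  obtain ⟨W, hW⟩ := exists_isCompl U
  obtain ⟨I, hI, ⟨θ⟩⟩ := isSimpleModule_iff_quot_maximal.mp hU
  let _ : Field (K[X] ⧸ I) := Ideal.Quotient.field I
  have hfinM : Module.Finite K (Module.AEval' f) := inferInstance
  have hfinU : Module.Finite K U :=
    Module.Finite.of_injective (U.subtype.restrictScalars K) U.injective_subtype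
  have hfinW : Module.Finite K W :=
    Module.Finite.of_injective (W.subtype.restrictScalars K) W.injective_subtype
  have hfinE : Module.Finite K (K[X] ⧸ I) := Module.Finite.equiv (θ.restrictScalars K)
  have hFinE : Finite (K[X] ⧸ I) := Module.finite_of_finite K
  obtain ⟨ε, hε⟩ := FiniteField.norm_surjective K (K[X] ⧸ I) δ
  let μ : (K[X] ⧸ I) →ₗ[K[X]] (K[X] ⧸ I) := LinearMap.mulLeft K[X] ε
  let A : U →ₗ[K[X]] U := (θ.symm : (K[X] ⧸ I) →ₗ[K[X]] U) ∘ₗ μ ∘ₗ (θ : U →ₗ[K[X]] (K[X] ⧸ I))
  let Φ := Submodule.prodEquivOfIsCompl U W hW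
  let c : Module.AEval' f →ₗ[K[X]] Module.AEval' f :=
    (Φ : (U × W) →ₗ[K[X]] Module.AEval' f) ∘ₗ (A.prodMap LinearMap.id) ∘ₗ (Φ.symm : Module.AEval' f →ₗ[K[X]] (U × W))
  have hdetμ : LinearMap.det (μ.restrictScalars K) = δ := by
    rw [← hε, Algebra.norm_apply]
    rfl
  have hdetA : LinearMap.det (A.restrictScalars K) = δ := by
    rw [← hdetμ]
    exact LinearMap.det_conj (μ.restrictScalars K) (θ.restrictScalars K).symm
  have hdetc : LinearMap.det (c.restrictScalars K) = δ := by
    have h1 := LinearMap.det_conj ((A.restrictScalars K).prodMap (LinearMap.id : W →ₗ[K] W)) (Φ.restrictScalars K)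
    rw [LinearMap.det_prodMap, LinearMap.det_id, mul_one, hdetA] at h1
    exact h1
  let o := Module.AEval'.of f
  refine ⟨(o.symm : Module.AEval' f →ₗ[K] V) ∘ₗ (c.restrictScalars K) ∘ₗ (o : V →ₗ[K] Module.AEval' f), ?_, ?_⟩
  · intro v
    simp only [LinearMap.comp_apply, LinearEquiv.coe_coe, LinearMap.restrictScalars_apply]
    rw [← Module.AEval'.X_smul_of, map_smul, Module.AEval'.of_symm_X_smul]
  · rw [← hdetc]
    exact LinearMap.det_conj (c.restrictScalars K) o.symm

/-- an endomorphism of finite order prime to the characteristic is semisimple. -/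
theorem isSemisimple_of_pow_eq_one {K V : Type*} [Field K] [AddCommGroup V] [Module K V]
    (f : Module.End K V) (k : ℕ) (hk : (k : K) ≠ 0) (hf : f ^ k = 1) : f.IsSemisimple := by
  apply Module.End.isSemisimple_of_squarefree_aeval_eq_zero (p := (X ^ k - 1 : K[X]))
  · exact (Polynomial.X_pow_sub_one_separable_iff.2 hk).squarefree
  · simp [hf]

end Cfsg.Agent.Lib.Helper43
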