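import Cfsg.Agent.Lib.Helper43.BinQuadPlus
import Cfsg.Agent.Lib.Helper43.BinQuad2

set_option autoImplicit false

namespace Cfsg.Agent.Lib.Helper43

open Module Matrix

section ext
variable (F : Type*) [Field F] (α β : Type*)

/-- extension by zero of a function on the left summand -/
def extL : (α → F) →ₗ[F] (α ⊕ β → F) :=
  (LinearEquiv.sumArrowLequivProdArrow α β F F).symm.toLinearMap ∘ₗ LinearMap.inl F (α → F) (β → F)

@[simp] theorem extL_inl (x : α → F) (a : α) : extL F α β x (.inl a) = x a := rfl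
@[simp] theorem extL_inr (x : α → F) (b : β) : extL F α β x (.inr b) = 0 := rfl

theorem extL_injective : Function.Injective (extL F α β) := by
  intro x y h
  funext a
  have := congrFun h (.inl a)
  simpa using this

end ext

theorem plusB_nondegenerate (m : ℕ) (F : Type*) [Field F] : (plusB m F).Nondegenerate := by
  constructor
  · intro x hx
    by_contra h
    obtain ⟨u, hu⟩ := plusB_nondeg m F x h
    exact hu (by rw [plusB_comm]; exact hx u)
  · intro y hy
    by_contra h
    obtain ⟨u, hu⟩ := plusB_nondeg m F y h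
    exact hu (hy u)

theorem finrank_plus_space (m : ℕ) (F : Type*) [Field F] : finrank F (Fin m ⊕ Fin m → F) = 2 * m := by
  simp; ring

section sing
variable (m : ℕ) (q : (Fin m ⊕ Fin m → ZMod 2) → ZMod 2)
  (hq : ∀ u v, q (u + v) = q u + q v + plusB m (ZMod 2) u v)
  (U : Submodule (ZMod 2) (Fin m ⊕ Fin m → ZMod 2)) (hU : ∀ u ∈ U, q u = 0)

include hq hU

theorem le_orthogonal_of_singular : U ≤ (plusB m (ZMod 2)).orthogonal U :=
  fun v hv u hu => polar_eq_zero_of_singular _ q hq U hU u v hu hv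

theorem finrank_le_of_singular : finrank (ZMod 2) U ≤ m := by
  have h1 := le_orthogonal_of_singular m q hq U hU
  have h2 := LinearMap.BilinForm.finrank_orthogonal (plusB_nondegenerate m (ZMod 2)) U
  have h3 := Submodule.finrank_mono h1
  rw [finrank_plus_space] at h2
  omega

theorem expSum_of_singular_finrank_eq (hfin : finrank (ZMod 2) U = m) : expSum q = 2 ^ m := by
  classical
  haveI : Fintype U := Fintype.ofFinite U
  have h1 := le_orthogonal_of_singular m q hq U hU
  have h2 := LinearMap.BilinForm.finrank_orthogonal (plusB_nondegenerate m (ZMod 2)) U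
  rw [finrank_plus_space] at h2
  have h3 : U = (plusB m (ZMod 2)).orthogonal U := Submodule.eq_of_le_of_finrank_eq h1 (by omega)
  have h4 := expSum_eq_card_of_lagrangian (plusB m (ZMod 2)) q hq U hU (fun v hv => by
    rw [h3]
    intro u hu
    rw [plusB_comm]
    exact hv u hu)
  rw [h4, Nat.card_eq_fintype_card, Module.card_eq_pow_finrank (K := ZMod 2) (V := U), hfin, ZMod.card]
  norm_cast

end sing

theorem plus_polar' (m : ℕ) (u v : Fin m ⊕ Fin m → ZMod 2) :
    Cfsg.quadFormPlus m (ZMod 2) (u + v) =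
      Cfsg.quadFormPlus m (ZMod 2) u + Cfsg.quadFormPlus m (ZMod 2) v + plusB m (ZMod 2) u v := by
  rw [← plus_polar]; ring

/-- the standard maximal totally singular subspace for the plus form. -/
def plusLagr (m : ℕ) (F : Type*) [Field F] : Submodule F (Fin m ⊕ Fin m → F) :=
  LinearMap.range (extL F (Fin m) (Fin m))

theorem plusLagr_singular (m : ℕ) (F : Type*) [Field F] (u) (hu : u ∈ plusLagr m F) :
    Cfsg.quadFormPlus m F u = 0 := by
  obtain ⟨x, rfl⟩ := hu
  simp [Cfsg.quadFormPlus]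

theorem finrank_plusLagr (m : ℕ) (F : Type*) [Field F] : finrank F (plusLagr m F) = m := by
  unfold plusLagr
  rw [LinearMap.finrank_range_of_inj (extL_injective F _ _)]
  simp

theorem expSum_plus (m : ℕ) : expSum (Cfsg.quadFormPlus m (ZMod 2)) = 2 ^ m :=
  expSum_of_singular_finrank_eq m _ (plus_polar' m) (plusLagr m (ZMod 2)) (plusLagr_singular m _)
    (finrank_plusLagr m _)

/-- reindexing between the index sets of the minus form and of the plus form. -/
def sigmaFun (k : ℕ) : (Fin k ⊕ Fin k) ⊕ Fin 2 → Fin (k + 1) ⊕ Fin (k + 1)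
  | .inl (.inl i) => .inl i.castSucc
  | .inl (.inr i) => .inr i.castSucc
  | .inr j => if j = 0 then .inl (Fin.last k) else .inr (Fin.last k)

theorem sigmaFun_bijective (k : ℕ) : Function.Bijective (sigmaFun k) := by
  rw [Fintype.bijective_iff_injective_and_card]
  constructor
  · rintro ((i | i) | i) ((j | j) | j) h
    all_goals simp only [sigmaFun] at h
    all_goals try split_ifs at h
    all_goals simp_all [Fin.castSucc_ne_last, (Fin.castSucc_ne_last _).symm]
    all_goals omega
  · simp; ring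

/-- reindexing between the index sets of the minus form and of the plus form. -/
noncomputable def sigmaEquiv (k : ℕ) : (Fin k ⊕ Fin k) ⊕ Fin 2 ≃ Fin (k + 1) ⊕ Fin (k + 1) :=
  Equiv.ofBijective _ (sigmaFun_bijective k)

/-- the linear identification of the two `2(k+1)`-dimensional coordinate spaces. -/
noncomputable def minusEquiv (k : ℕ) (F : Type*) [Field F] :
    (Fin (k + 1) ⊕ Fin (k + 1) → F) ≃ₗ[F] ((Fin k ⊕ Fin k) ⊕ Fin 2 → F) :=
  LinearEquiv.funCongrLeft F F (sigmaEquiv k)

theorem minusEquiv_apply (k : ℕ) (F : Type*) [Field F] (v : Fin (k + 1) ⊕ Fin (k + 1) → F) (j) :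
    minusEquiv k F v j = v (sigmaFun k j) := rfl

/-- the vector `e_last + f_last`. -/
def w0 (k : ℕ) : Fin (k + 1) ⊕ Fin (k + 1) → ZMod 2 :=
  Pi.single (.inl (Fin.last k)) 1 + Pi.single (.inr (Fin.last k)) 1

theorem plusB_w0 (k : ℕ) (v : Fin (k + 1) ⊕ Fin (k + 1) → ZMod 2) :
    plusB (k + 1) (ZMod 2) v (w0 k) = v (.inl (Fin.last k)) + v (.inr (Fin.last k)) := by
  rw [plusB_comm, w0, map_add, LinearMap.add_apply, plusB_single_inl, plusB_single_inr, add_comm]

theorem plus_w0 (k : ℕ) : Cfsg.quadFormPlus (k + 1) (ZMod 2) (w0 k) = 1 := by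
  unfold Cfsg.quadFormPlus w0
  rw [Finset.sum_eq_single (Fin.last k)]
  · simp
  · intro i _ hi
    simp [hi]
  · simp

theorem minus_eq (k : ℕ) (v : Fin (k + 1) ⊕ Fin (k + 1) → ZMod 2) :
    Cfsg.quadFormMinus k (ZMod 2) 1 1 (minusEquiv k (ZMod 2) v) =
      Cfsg.quadFormPlus (k + 1) (ZMod 2) v + plusB (k + 1) (ZMod 2) v (w0 k) := by
  rw [plusB_w0]
  unfold Cfsg.quadFormMinus Cfsg.quadFormPlus
  rw [Fin.sum_univ_castSucc]
  simp only [minusEquiv_apply, sigmaFun]
  simp only [if_true, one_ne_zero, if_false, one_mul]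
  have hsq : ∀ a : ZMod 2, a ^ 2 = a := by decide
  rw [hsq, hsq]
  ring

theorem minus_polar (k : ℕ) (u v : Fin (k + 1) ⊕ Fin (k + 1) → ZMod 2) :
    Cfsg.quadFormMinus k (ZMod 2) 1 1 (minusEquiv k (ZMod 2) (u + v)) =
      Cfsg.quadFormMinus k (ZMod 2) 1 1 (minusEquiv k (ZMod 2) u) +
      Cfsg.quadFormMinus k (ZMod 2) 1 1 (minusEquiv k (ZMod 2) v) + plusB (k + 1) (ZMod 2) u v := by
  rw [minus_eq, minus_eq, minus_eq, plus_polar', map_add, LinearMap.add_apply]
  ring

theorem expSum_minus' (k : ℕ) :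
    expSum (fun v => Cfsg.quadFormMinus k (ZMod 2) 1 1 (minusEquiv k (ZMod 2) v)) = - 2 ^ (k + 1) := by
  simp_rw [minus_eq]
  rw [expSum_translate _ _ (plus_polar' (k + 1)) (plusB_self_two (k + 1)), plus_w0, expSum_plus]
  simp

theorem expSum_minus (k : ℕ) :
    expSum (Cfsg.quadFormMinus k (ZMod 2) 1 1) = - 2 ^ (k + 1) := by
  rw [← expSum_minus']
  exact (expSum_comp_equiv _ (minusEquiv k (ZMod 2)).toEquiv).symm

end Cfsg.Agent.Lib.Helper43
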