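import Cfsg.Prelude.Def_Classical
import Cfsg.Agent.Lib.Helper43.BinQuad

set_option autoImplicit false

namespace Cfsg.Agent.Lib.Helper43

open Module Matrix

section plus
variable (m : ℕ) (F : Type*) [Field F]

/-- polar bilinear form of the plus-type quadratic form. -/
noncomputable def plusB : LinearMap.BilinForm F (Fin m ⊕ Fin m → F) :=
  Matrix.toBilin' (Matrix.fromBlocks 0 1 1 0)

theorem plusB_apply (u v : Fin m ⊕ Fin m → F) :
    plusB m F u v = ∑ i, (u (.inl i) * v (.inr i) + u (.inr i) * v (.inl i)) := by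
  unfold plusB
  rw [Matrix.toBilin'_apply', Matrix.fromBlocks_mulVec]
  simp [dotProduct, Fintype.sum_sum_type, Finset.sum_add_distrib]

theorem plus_polar (u v : Fin m ⊕ Fin m → F) :
    Cfsg.quadFormPlus m F (u + v) - Cfsg.quadFormPlus m F u - Cfsg.quadFormPlus m F v = plusB m F u v := by
  rw [plusB_apply]
  unfold Cfsg.quadFormPlus
  rw [← Finset.sum_sub_distrib, ← Finset.sum_sub_distrib]
  apply Finset.sum_congr rfl
  intro i _
  simp only [Pi.add_apply]
  ring

theorem plusB_single_inl (i : Fin m) (t : Fin m ⊕ Fin m → F) :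
    plusB m F (Pi.single (.inl i) 1) t = t (.inr i) := by
  classical
  rw [plusB_apply]
  simp [Pi.single_apply]

theorem plusB_single_inr (i : Fin m) (t : Fin m ⊕ Fin m → F) :
    plusB m F (Pi.single (.inr i) 1) t = t (.inl i) := by
  classical
  rw [plusB_apply]
  simp [Pi.single_apply]

theorem plusB_nondeg (t : Fin m ⊕ Fin m → F) (ht : t ≠ 0) : ∃ u, plusB m F u t ≠ 0 := by
  by_contra h
  push Not at h
  apply ht
  ext j
  rcases j with i | i
  · simpa [plusB_single_inr] using h (Pi.single (.inr i) 1)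
  · simpa [plusB_single_inl] using h (Pi.single (.inl i) 1)

theorem plusB_comm (u v : Fin m ⊕ Fin m → F) : plusB m F u v = plusB m F v u := by
  rw [plusB_apply, plusB_apply]
  apply Finset.sum_congr rfl
  intro i _
  ring

theorem plusB_self (v : Fin m ⊕ Fin m → F) : plusB m F v v = 2 * Cfsg.quadFormPlus m F v := by
  rw [plusB_apply]
  unfold Cfsg.quadFormPlus
  rw [Finset.mul_sum]
  apply Finset.sum_congr rfl
  intro i _
  ring

end plus

theorem plusB_self_two (m : ℕ) (v : Fin m ⊕ Fin m → ZMod 2) : plusB m (ZMod 2) v v = 0 := by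
  rw [plusB_self]
  have : (2 : ZMod 2) = 0 := by decide
  rw [this, zero_mul]

end Cfsg.Agent.Lib.Helper43
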