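import Mathlib

set_option autoImplicit false

namespace Cfsg.Agent.Lib.Helper43

/-- Splitting of a `G`-class contained in a normal subgroup `S = ker δ` into `S`-classes: they are counted by
the index of the image under `δ` of the centraliser. -/
theorem card_classes_split {S G D : Type*} [Group S] [Group G] [CommGroup D] (ι : S →* G)
    (hι : Function.Injective ι) (δ : G →* D) (hδ : Function.Surjective δ)
    (hker : ∀ g, δ g = 1 ↔ g ∈ ι.range) (u0 : S) (H : Subgroup D)
    (hH : ∀ d, d ∈ H ↔ ∃ g, g * ι u0 = ι u0 * g ∧ δ g = d) :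
    Nat.card {C : ConjClasses S // ∃ u, ConjClasses.mk u = C ∧ IsConj (ι u) (ι u0)} = H.index := by
  classical
  have hδι : ∀ s, δ (ι s) = 1 := fun s => (hker _).2 ⟨s, rfl⟩
  have hex : ∀ g : G, ∃ s : S, ι s = g * ι u0 * g⁻¹ := by
    intro g
    have : δ (g * ι u0 * g⁻¹) = 1 := by
      rw [map_mul, map_mul, hδι, map_inv, mul_one, mul_inv_cancel]
    exact (hker _).1 this
  choose cj hcj using hex
  have claim1 : ∀ g g' : G, ConjClasses.mk (cj g) = ConjClasses.mk (cj g') ↔ (δ g)⁻¹ * δ g' ∈ H := by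
    intro g g'
    rw [ConjClasses.mk_eq_mk_iff_isConj, isConj_iff]
    constructor
    · rintro ⟨s, hs⟩
      have h1 := congrArg ι hs
      rw [map_mul, map_mul, map_inv, hcj, hcj] at h1
      have h2 : (δ g')⁻¹ * δ g ∈ H := by
        rw [hH]
        refine ⟨g'⁻¹ * ι s * g, ?_, ?_⟩
        · have : ι s * (g * ι u0 * g⁻¹) = g' * ι u0 * g'⁻¹ * ι s := by
            rw [← h1]; group
          calc g'⁻¹ * ι s * g * ι u0 = g'⁻¹ * (ι s * (g * ι u0 * g⁻¹)) * g := by group
            _ = g'⁻¹ * (g' * ι u0 * g'⁻¹ * ι s) * g := by rw [this]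
            _ = ι u0 * (g'⁻¹ * ι s * g) := by group
        · rw [map_mul, map_mul, hδι, map_inv, mul_one]
      have h3 := H.inv_mem h2
      rwa [mul_inv_rev, inv_inv] at h3
    · intro h
      obtain ⟨c, hc, hcδ⟩ := (hH _).1 h
      have h1 : δ (g' * c⁻¹ * g⁻¹) = 1 := by
        rw [map_mul, map_mul, map_inv, map_inv, hcδ]
        rw [mul_inv_rev, inv_inv]
        rw [mul_inv_cancel_left, mul_inv_cancel]
      obtain ⟨s, hs⟩ := (hker _).1 h1
      refine ⟨s, hι ?_⟩
      rw [map_mul, map_mul, map_inv, hcj, hcj, hs]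
      have hc' : c⁻¹ * ι u0 * c = ι u0 := by
        rw [mul_assoc, ← hc]; group
      calc g' * c⁻¹ * g⁻¹ * (g * ι u0 * g⁻¹) * (g' * c⁻¹ * g⁻¹)⁻¹
          = g' * (c⁻¹ * ι u0 * c) * g'⁻¹ := by group
        _ = g' * ι u0 * g'⁻¹ := by rw [hc']
  have hconj : ∀ g, IsConj (ι (cj g)) (ι u0) := by
    intro g
    rw [isConj_comm, isConj_iff]
    exact ⟨g, (hcj g).symm⟩
  let γ : D → G := Function.surjInv hδ
  have hγ : ∀ d, δ (γ d) = d := Function.surjInv_eq hδ
  let f : D → {C : ConjClasses S // ∃ u, ConjClasses.mk u = C ∧ IsConj (ι u) (ι u0)} :=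
    fun d => ⟨ConjClasses.mk (cj (γ d)), cj (γ d), rfl, hconj _⟩
  have hfsurj : Function.Surjective f := by
    rintro ⟨C, u, rfl, hu⟩
    rw [isConj_comm, isConj_iff] at hu
    obtain ⟨g, hg⟩ := hu
    have hug : u = cj g := hι (by rw [hcj, hg])
    refine ⟨δ g, Subtype.ext ?_⟩
    show ConjClasses.mk (cj (γ (δ g))) = ConjClasses.mk u
    rw [hug, claim1, hγ, inv_mul_cancel]
    exact H.one_mem
  have hker' : Setoid.ker f = QuotientGroup.leftRel H := by
    ext d d'
    rw [Setoid.ker_def, QuotientGroup.leftRel_apply]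
    constructor
    · intro h
      have := (claim1 _ _).1 (congrArg Subtype.val h)
      rwa [hγ, hγ] at this
    · intro h
      apply Subtype.ext
      show ConjClasses.mk (cj (γ d)) = ConjClasses.mk (cj (γ d'))
      rw [claim1, hγ, hγ]
      exact h
  rw [← Nat.card_congr (Setoid.quotientKerEquivOfSurjective f hfsurj), hker']
  rfl

end Cfsg.Agent.Lib.Helper43
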