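import Mathlib

set_option autoImplicit false

namespace Cfsg.Agent.Lib.Helper43

/-- The field with four elements, explicitly. -/
theorem f4_elems {F : Type*} [Field F] [Fintype F] (hF : Fintype.card F = 4) :
    (2 : F) = 0 ∧ ∃ ω : F, ω ^ 2 = ω + 1 ∧ ∀ y : F, y = 0 ∨ y = 1 ∨ y = ω ∨ y = ω + 1 := by
  classical
  have h2 : (2 : F) = 0 := by
    have h4 : ((4 : ℕ) : F) = 0 := hF ▸ Nat.cast_card_eq_zero F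
    have : (2 : F) * 2 = 0 := by
      norm_num at h4 ⊢; exact h4
    exact mul_self_eq_zero.mp this
  refine ⟨h2, ?_⟩
  obtain ⟨x, hx0, hx1⟩ : ∃ x : F, x ≠ 0 ∧ x ≠ 1 := by
    by_contra h
    push Not at h
    have hsub : (Finset.univ : Finset F) ⊆ {0, 1} := by
      intro y _
      by_cases hy : y = 0
      · simp [hy]
      · simp [h y hy]
    have := Finset.card_le_card hsub
    rw [Finset.card_univ, hF] at this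
    have h3 : ({0, 1} : Finset F).card ≤ 2 := Finset.card_le_two
    omega
  have hx3 : x ^ 3 = 1 := by
    have := FiniteField.pow_card_sub_one_eq_one x hx0
    rwa [hF] at this
  have hxx : x ^ 2 = x + 1 := by
    have h : (x - 1) * (x ^ 2 - (x + 1)) = 0 := by
      linear_combination hx3 + (-x ^ 2 + 1) * h2
    rcases mul_eq_zero.mp h with h | h
    · exact absurd (sub_eq_zero.mp h) hx1
    · exact sub_eq_zero.mp h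
  refine ⟨x, hxx, fun y => ?_⟩
  have hy4 : y ^ 4 = y := by
    have := FiniteField.pow_card y
    rwa [hF] at this
  have h : y * ((y - 1) * ((y - x) * (y - (x + 1)))) = 0 := by
    linear_combination hy4 + (y ^ 2 - y) * hxx + (-y ^ 3 * x - y ^ 3 + y ^ 2 * x + y ^ 2 - y ^ 2 + y + (-y - x * y + y ^ 2 + x * y ^ 2)) * h2
  rcases mul_eq_zero.mp h with h | h
  · exact Or.inl h
  rcases mul_eq_zero.mp h with h | h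
  · exact Or.inr (Or.inl (sub_eq_zero.mp h))
  rcases mul_eq_zero.mp h with h | h
  · exact Or.inr (Or.inr (Or.inl (sub_eq_zero.mp h)))
  · exact Or.inr (Or.inr (Or.inr (sub_eq_zero.mp h)))

/-- For each monic cubic over `F_4` with constant term one, some power `X ^ k`, `k ∈ {3,4,5,7}`,
is a scalar modulo the cubic. -/
theorem f4_cubic_pow {R : Type*} [CommRing R] (X W c1 c2 : R) (h2 : (2 : R) = 0)
    (hW : W ^ 2 = W + 1) (hc1 : c1 = 0 ∨ c1 = 1 ∨ c1 = W ∨ c1 = W + 1)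
    (hc2 : c2 = 0 ∨ c2 = 1 ∨ c2 = W ∨ c2 = W + 1) :
    ∃ (k : ℕ) (lam q : R), (k = 3 ∨ k = 4 ∨ k = 5 ∨ k = 7) ∧ (lam = 1 ∨ lam = W ∨ lam = W + 1) ∧
      X ^ k - lam = (X ^ 3 + c2 * X ^ 2 + c1 * X + 1) * q := by
  rcases hc1 with h1 | h1 | h1 | h1 <;> rcases hc2 with h3 | h3 | h3 | h3 <;> rw [h1, h3]
  · exact ⟨3, 1, (1), Or.inl rfl, Or.inl rfl, by
      linear_combination ((-1)) * h2 + (0) * hW⟩
  · exact ⟨7, 1, (1) + (1) * X ^ 2 + (1) * X ^ 3 + (1) * X ^ 4, Or.inr (Or.inr (Or.inr rfl)), Or.inl rfl, by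
      linear_combination ((-1) + (-1) * X ^ 2 + (-1) * X ^ 3 + (-1) * X ^ 4 + (-1) * X ^ 5 + (-1) * X ^ 6) * h2 + (0) * hW⟩
  · exact ⟨7, W, (1) * W ^ 1 + (1) * X ^ 2 + (1) * X ^ 2 * W ^ 1 + (1) * X ^ 3 * W ^ 1 + (1) * X ^ 4, Or.inr (Or.inr (Or.inr rfl)), Or.inr (Or.inl rfl), by
      linear_combination ((-1) * W ^ 1 + (-1) * X ^ 2 + (-1) * X ^ 2 * W ^ 1 + (-1) * X ^ 3 * W ^ 1 + (-1) * X ^ 4 + (-1) * X ^ 4 * W ^ 1 + (-1) * X ^ 5 + (-1) * X ^ 5 * W ^ 1 + (-1) * X ^ 6 * W ^ 1) * h2 + ((-1) * X ^ 2 + (-1) * X ^ 4 + (-1) * X ^ 5) * hW⟩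
  · exact ⟨7, (W + 1), (1) + (1) * W ^ 1 + (1) * X ^ 2 * W ^ 1 + (1) * X ^ 3 + (1) * X ^ 3 * W ^ 1 + (1) * X ^ 4, Or.inr (Or.inr (Or.inr rfl)), Or.inr (Or.inr rfl), by
      linear_combination ((-1) + (-1) * W ^ 1 + (-1) * X ^ 2 + (-2) * X ^ 2 * W ^ 1 + (-1) * X ^ 3 + (-1) * X ^ 3 * W ^ 1 + (-1) * X ^ 4 + (-1) * X ^ 4 * W ^ 1 + (-1) * X ^ 5 + (-2) * X ^ 5 * W ^ 1 + (-1) * X ^ 6 + (-1) * X ^ 6 * W ^ 1) * h2 + ((-1) * X ^ 2 + (-1) * X ^ 4 + (-1) * X ^ 5) * hW⟩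
  · exact ⟨7, 1, (1) + (1) * X ^ 1 + (1) * X ^ 2 + (1) * X ^ 4, Or.inr (Or.inr (Or.inr rfl)), Or.inl rfl, by
      linear_combination ((-1) + (-1) * X ^ 1 + (-1) * X ^ 2 + (-1) * X ^ 3 + (-1) * X ^ 4 + (-1) * X ^ 5) * h2 + (0) * hW⟩
  · exact ⟨4, 1, (1) + (1) * X ^ 1, Or.inr (Or.inl rfl), Or.inl rfl, by
      linear_combination ((-1) + (-1) * X ^ 1 + (-1) * X ^ 2 + (-1) * X ^ 3) * h2 + (0) * hW⟩
  · exact ⟨5, W, (1) * W ^ 1 + (1) * X ^ 1 * W ^ 1 + (1) * X ^ 2, Or.inr (Or.inr (Or.inl rfl)), Or.inr (Or.inl rfl), by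
      linear_combination ((-1) * W ^ 1 + (-1) * X ^ 1 * W ^ 1 + (-1) * X ^ 2 + (-1) * X ^ 2 * W ^ 1 + (-1) * X ^ 3 + (-1) * X ^ 3 * W ^ 1 + (-1) * X ^ 4 * W ^ 1) * h2 + ((-1) * X ^ 2 + (-1) * X ^ 3) * hW⟩
  · exact ⟨5, (W + 1), (1) + (1) * W ^ 1 + (1) * X ^ 1 + (1) * X ^ 1 * W ^ 1 + (1) * X ^ 2, Or.inr (Or.inr (Or.inl rfl)), Or.inr (Or.inr rfl), by
      linear_combination ((-1) + (-1) * W ^ 1 + (-1) * X ^ 1 + (-1) * X ^ 1 * W ^ 1 + (-2) * X ^ 2 + (-2) * X ^ 2 * W ^ 1 + (-2) * X ^ 3 + (-2) * X ^ 3 * W ^ 1 + (-1) * X ^ 4 + (-1) * X ^ 4 * W ^ 1) * h2 + ((-1) * X ^ 2 + (-1) * X ^ 3) * hW⟩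
  · exact ⟨7, (W + 1), (1) + (1) * W ^ 1 + (1) * X ^ 1 + (1) * X ^ 2 * W ^ 1 + (1) * X ^ 4, Or.inr (Or.inr (Or.inr rfl)), Or.inr (Or.inr rfl), by
      linear_combination ((-1) + (-1) * W ^ 1 + (-1) * X ^ 1 + (-1) * X ^ 1 * W ^ 1 + (-1) * X ^ 2 * W ^ 1 + (-1) * X ^ 3 + (-1) * X ^ 3 * W ^ 1 + (-1) * X ^ 4 + (-1) * X ^ 5 * W ^ 1) * h2 + ((-1) * X ^ 1 + (-1) * X ^ 3) * hW⟩
  · exact ⟨5, (W + 1), (1) + (1) * W ^ 1 + (1) * X ^ 1 + (1) * X ^ 2, Or.inr (Or.inr (Or.inl rfl)), Or.inr (Or.inr rfl), by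
      linear_combination ((-1) + (-1) * W ^ 1 + (-1) * X ^ 1 + (-1) * X ^ 1 * W ^ 1 + (-1) * X ^ 2 + (-1) * X ^ 2 * W ^ 1 + (-1) * X ^ 3 + (-1) * X ^ 3 * W ^ 1 + (-1) * X ^ 4) * h2 + ((-1) * X ^ 1) * hW⟩
  · exact ⟨5, 1, (1) + (1) * X ^ 1 * W ^ 1 + (1) * X ^ 2, Or.inr (Or.inr (Or.inl rfl)), Or.inl rfl, by
      linear_combination ((-1) + (-1) * X ^ 1 * W ^ 1 + (-1) * X ^ 2 + (-1) * X ^ 2 * W ^ 1 + (-1) * X ^ 3 + (-1) * X ^ 3 * W ^ 1 + (-1) * X ^ 4 * W ^ 1) * h2 + ((-1) * X ^ 2 + (-1) * X ^ 3) * hW⟩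
  · exact ⟨4, (W + 1), (1) + (1) * W ^ 1 + (1) * X ^ 1, Or.inr (Or.inl rfl), Or.inr (Or.inr rfl), by
      linear_combination ((-1) + (-1) * W ^ 1 + (-1) * X ^ 1 + (-1) * X ^ 1 * W ^ 1 + (-1) * X ^ 2 + (-2) * X ^ 2 * W ^ 1 + (-1) * X ^ 3 + (-1) * X ^ 3 * W ^ 1) * h2 + ((-1) * X ^ 1 + (-1) * X ^ 2) * hW⟩
  · exact ⟨7, W, (1) * W ^ 1 + (1) * X ^ 1 + (1) * X ^ 2 + (1) * X ^ 2 * W ^ 1 + (1) * X ^ 4, Or.inr (Or.inr (Or.inr rfl)), Or.inr (Or.inl rfl), by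
      linear_combination ((-1) * W ^ 1 + (-1) * X ^ 1 + (-1) * X ^ 1 * W ^ 1 + (-1) * X ^ 2 + (-1) * X ^ 2 * W ^ 1 + (-1) * X ^ 3 + (-2) * X ^ 3 * W ^ 1 + (-1) * X ^ 4 + (-1) * X ^ 5 + (-1) * X ^ 5 * W ^ 1) * h2 + ((-1) * X ^ 1 + (-1) * X ^ 3) * hW⟩
  · exact ⟨5, W, (1) * W ^ 1 + (1) * X ^ 1 + (1) * X ^ 2, Or.inr (Or.inr (Or.inl rfl)), Or.inr (Or.inl rfl), by
      linear_combination ((-1) * W ^ 1 + (-1) * X ^ 1 + (-1) * X ^ 1 * W ^ 1 + (-1) * X ^ 2 + (-1) * X ^ 2 * W ^ 1 + (-1) * X ^ 3 + (-1) * X ^ 3 * W ^ 1 + (-1) * X ^ 4) * h2 + ((-1) * X ^ 1) * hW⟩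
  · exact ⟨4, W, (1) * W ^ 1 + (1) * X ^ 1, Or.inr (Or.inl rfl), Or.inr (Or.inl rfl), by
      linear_combination ((-1) * W ^ 1 + (-1) * X ^ 1 + (-1) * X ^ 1 * W ^ 1 + (-1) * X ^ 2 + (-1) * X ^ 2 * W ^ 1 + (-1) * X ^ 3 * W ^ 1) * h2 + ((-1) * X ^ 1 + (-1) * X ^ 2) * hW⟩
  · exact ⟨5, 1, (1) + (1) * X ^ 1 + (1) * X ^ 1 * W ^ 1 + (1) * X ^ 2, Or.inr (Or.inr (Or.inl rfl)), Or.inl rfl, by
      linear_combination ((-1) + (-1) * X ^ 1 + (-1) * X ^ 1 * W ^ 1 + (-2) * X ^ 2 + (-2) * X ^ 2 * W ^ 1 + (-2) * X ^ 3 + (-2) * X ^ 3 * W ^ 1 + (-1) * X ^ 4 + (-1) * X ^ 4 * W ^ 1) * h2 + ((-1) * X ^ 2 + (-1) * X ^ 3) * hW⟩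

end Cfsg.Agent.Lib.Helper43
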