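import Cfsg.Agent.Lib.Helper43.RegNilp

set_option autoImplicit false

namespace Cfsg.Agent.Lib.Helper43

open Module

section cyclic
variable {K V : Type*} [Field K] [AddCommGroup V] [Module K V] [FiniteDimensional K V]

theorem pow_apply_eq_zero_of_le (f : V →ₗ[K] V) {i j : ℕ} (hij : i ≤ j) (w : V) (h : (f ^ i) w = 0) :
    (f ^ j) w = 0 := by
  obtain ⟨k, rfl⟩ := Nat.exists_eq_add_of_le hij
  rw [add_comm, pow_add, Module.End.mul_apply, h, map_zero]

/-- A vector not killed by `f^(n-1)` is cyclic for a regular nilpotent `f`. -/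
theorem span_pow_eq_top (f : V →ₗ[K] V) (n : ℕ) (hn : finrank K V = n) (hf : f ^ n = 0)
    (hker : finrank K (LinearMap.ker f) ≤ 1) (w : V) (hw : (f ^ (n - 1)) w ≠ 0) :
    ⊤ ≤ Submodule.span K (Set.range (fun i : Fin n => (f ^ (i : ℕ)) w)) := by
  set W := Submodule.span K (Set.range (fun i : Fin n => (f ^ (i : ℕ)) w)) with hWdef
  have hn1 : 1 ≤ n := by
    by_contra h
    have h0 : n = 0 := by omega
    subst h0
    have : Subsingleton V := Module.finrank_zero_iff.1 hn
    exact hw (Subsingleton.elim _ _)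
  have hinv : ∀ v ∈ W, f v ∈ W := by
    intro v hv
    induction hv using Submodule.span_induction with
    | mem x hx =>
      obtain ⟨i, rfl⟩ := hx
      by_cases hi : (i : ℕ) + 1 < n
      · apply Submodule.subset_span
        refine ⟨⟨i + 1, hi⟩, ?_⟩
        simp only [pow_succ', Module.End.mul_apply]
      · have : (i : ℕ) + 1 = n := by have := i.2; omega
        have h0 : f ((f ^ (i : ℕ)) w) = 0 := by
          rw [← Module.End.mul_apply, ← pow_succ', this, hf]; rfl
        simp only [h0]
        exact W.zero_mem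
    | zero => simp
    | add x y _ _ hx hy => rw [map_add]; exact W.add_mem hx hy
    | smul c x _ hx => rw [map_smul]; exact W.smul_mem c hx
  have hWeq := eq_ker_pow_finrank_of_invariant f ⟨n, hf⟩ hker W hinv
  have hwW : w ∈ W := by
    apply Submodule.subset_span
    exact ⟨⟨0, hn1⟩, by simp⟩
  rw [hWeq, LinearMap.mem_ker] at hwW
  have hge : n ≤ finrank K W := by
    by_contra h
    exact hw (pow_apply_eq_zero_of_le f (by omega) w hwW)
  have : W = ⊤ := Submodule.eq_top_of_finrank_eq (by
    have := Submodule.finrank_le W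
    omega)
  rw [this]

/-- the cyclic basis `w, f w, f² w, …`. -/
noncomputable def cyclicBasis (f : V →ₗ[K] V) (n : ℕ) (hn : finrank K V = n) (hf : f ^ n = 0)
    (hker : finrank K (LinearMap.ker f) ≤ 1) (w : V) (hw : (f ^ (n - 1)) w ≠ 0) : Basis (Fin n) K V :=
  basisOfTopLeSpanOfCardEqFinrank (fun i : Fin n => (f ^ (i : ℕ)) w)
    (span_pow_eq_top f n hn hf hker w hw) (by simp [hn])

theorem cyclicBasis_apply (f : V →ₗ[K] V) (n : ℕ) (hn : finrank K V = n) (hf : f ^ n = 0)
    (hker : finrank K (LinearMap.ker f) ≤ 1) (w : V) (hw : (f ^ (n - 1)) w ≠ 0) (i : Fin n) :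
    cyclicBasis f n hn hf hker w hw i = (f ^ (i : ℕ)) w := by
  simp [cyclicBasis]

theorem exists_cyclic (f : V →ₗ[K] V) (n : ℕ) (hn : finrank K V = n) (hn1 : 1 ≤ n)
    (hker : finrank K (LinearMap.ker f) ≤ 1) : ∃ w, (f ^ (n - 1)) w ≠ 0 := by
  by_contra h
  push Not at h
  have h1 : LinearMap.ker (f ^ (n - 1)) = ⊤ := by
    rw [LinearMap.ker_eq_top]; ext w; simpa using h w
  have h2 := finrank_ker_pow_le f (n - 1)
  rw [h1, finrank_top, hn] at h2
  have : (n - 1) * finrank K (LinearMap.ker f) ≤ (n - 1) * 1 := Nat.mul_le_mul_left _ hker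
  omega

theorem finrank_ker_pow_pred (f : V →ₗ[K] V) (n : ℕ) (hn : finrank K V = n) (hn1 : 1 ≤ n) (hf : f ^ n = 0)
    (hker : finrank K (LinearMap.ker f) ≤ 1) : finrank K (LinearMap.ker (f ^ (n - 1))) = n - 1 := by
  apply le_antisymm
  · have h2 := finrank_ker_pow_le f (n - 1)
    have : (n - 1) * finrank K (LinearMap.ker f) ≤ (n - 1) * 1 := Nat.mul_le_mul_left _ hker
    omega
  · have h1 : LinearMap.range f ≤ LinearMap.ker (f ^ (n - 1)) := by
      rintro _ ⟨x, rfl⟩
      rw [LinearMap.mem_ker, ← Module.End.mul_apply, ← pow_succ, Nat.sub_add_cancel hn1, hf]; rfl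
    have h2 := Submodule.finrank_mono h1
    have h3 := f.finrank_range_add_finrank_ker
    omega

/-- the commutant of a regular nilpotent in the linear group is in bijection with the cyclic vectors. -/
noncomputable def centralizerEquivCyclic (f : V →ₗ[K] V) (n : ℕ) (hn : finrank K V = n) (hf : f ^ n = 0)
    (hker : finrank K (LinearMap.ker f) ≤ 1) (v : V) (hv : (f ^ (n - 1)) v ≠ 0) :
    {X : V ≃ₗ[K] V // ∀ x, X (f x) = f (X x)} ≃ {w : V // (f ^ (n - 1)) w ≠ 0} := by
  have hcomm : ∀ (X : V ≃ₗ[K] V), (∀ x, X (f x) = f (X x)) → ∀ (k : ℕ) x, X ((f ^ k) x) = (f ^ k) (X x) := by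
    intro X hX k
    induction k with
    | zero => intro x; simp
    | succ k ih => intro x; rw [pow_succ', Module.End.mul_apply, Module.End.mul_apply, hX, ih]
  refine Equiv.ofBijective (fun X => ⟨X.1 v, ?_⟩) ⟨?_, ?_⟩
  · rw [← hcomm X.1 X.2]
    intro h
    exact hv (by simpa using h)
  · rintro ⟨X, hX⟩ ⟨Y, hY⟩ h
    have h1 : X v = Y v := congrArg Subtype.val h
    apply Subtype.ext
    apply LinearEquiv.toLinearMap_injective
    apply (cyclicBasis f n hn hf hker v hv).ext
    intro i
    simp only [cyclicBasis_apply, LinearEquiv.coe_coe]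
    rw [hcomm X hX, hcomm Y hY, h1]
  · rintro ⟨w, hw⟩
    let bv := cyclicBasis f n hn hf hker v hv
    let bw := cyclicBasis f n hn hf hker w hw
    let X : V ≃ₗ[K] V := bv.equiv bw (Equiv.refl _)
    have hXb : ∀ i : Fin n, X ((f ^ (i : ℕ)) v) = (f ^ (i : ℕ)) w := by
      intro i
      have := bv.equiv_apply (b' := bw) i (Equiv.refl _)
      simpa [bv, bw, cyclicBasis_apply, X] using this
    have hn1 : 1 ≤ n := by
      by_contra h
      have h0 : n = 0 := by omega
      subst h0
      have : Subsingleton V := Module.finrank_zero_iff.1 hn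
      exact hw (Subsingleton.elim _ _)
    have hX : ∀ x, X (f x) = f (X x) := by
      have : (X : V →ₗ[K] V) ∘ₗ f = f ∘ₗ (X : V →ₗ[K] V) := by
        apply bv.ext
        intro i
        simp only [bv, cyclicBasis_apply, LinearMap.comp_apply, LinearEquiv.coe_coe]
        rw [hXb i]
        by_cases hi : (i : ℕ) + 1 < n
        · have := hXb ⟨i + 1, hi⟩
          simp only [pow_succ', Module.End.mul_apply] at this
          exact this
        · have hi' : (i : ℕ) + 1 = n := by have := i.2; omega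
          have h0 : ∀ y, f ((f ^ (i : ℕ)) y) = 0 := by
            intro y
            rw [← Module.End.mul_apply, ← pow_succ', hi', hf]; rfl
          rw [h0, h0, map_zero]
      intro x
      exact LinearMap.congr_fun this x
    refine ⟨⟨X, hX⟩, ?_⟩
    apply Subtype.ext
    have := hXb ⟨0, hn1⟩
    simpa using this

theorem card_centralizer_regular_nilpotent [Fintype K] (f : V →ₗ[K] V) (n : ℕ) (hn : finrank K V = n)
    (hn1 : 1 ≤ n) (hf : f ^ n = 0) (hker : finrank K (LinearMap.ker f) ≤ 1) :
    Nat.card {X : V ≃ₗ[K] V // ∀ x, X (f x) = f (X x)} =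
      (Fintype.card K - 1) * Fintype.card K ^ (n - 1) := by
  classical
  obtain ⟨v, hv⟩ := exists_cyclic f n hn hn1 hker
  rw [Nat.card_congr (centralizerEquivCyclic f n hn hf hker v hv)]
  have : Finite V := Module.finite_of_finite K
  have : Fintype V := Fintype.ofFinite V
  have e : {w : V // (f ^ (n - 1)) w ≠ 0} = {w : V // ¬ w ∈ LinearMap.ker (f ^ (n - 1))} := by
    simp only [LinearMap.mem_ker]
  rw [e, Nat.card_eq_fintype_card, Fintype.card_subtype_compl,
    Module.card_eq_pow_finrank (K := K) (V := V), hn]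
  have h2 : Fintype.card {w : V // w ∈ LinearMap.ker (f ^ (n - 1))} = Fintype.card K ^ (n - 1) := by
    have h3 := Module.card_eq_pow_finrank (K := K) (V := LinearMap.ker (f ^ (n - 1)))
    rw [finrank_ker_pow_pred f n hn hn1 hf hker] at h3
    exact h3
  rw [h2]
  obtain ⟨k, rfl⟩ : ∃ k, n = k + 1 := ⟨n - 1, by omega⟩
  simp only [Nat.add_sub_cancel, pow_succ]
  rw [Nat.sub_mul, one_mul, mul_comm]

end cyclic

end Cfsg.Agent.Lib.Helper43
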