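import Cfsg.Agent.Lib.Helper43.RegNilp2

set_option autoImplicit false

namespace Cfsg.Agent.Lib.Helper43

open Module Polynomial

section
variable {K V : Type*} [Field K] [AddCommGroup V] [Module K V] [FiniteDimensional K V]

theorem det_algebraMap_add_nilpotent (c : K) (M : Module.End K V) (hM : IsNilpotent M) :
    LinearMap.det (algebraMap K (Module.End K V) c + M) = c ^ finrank K V := by
  have h1 : IsNilpotent (-M) := hM.neg
  have h2 := LinearMap.eval_charpoly (-M) c
  rw [h1.charpoly_eq_X_pow_finrank, sub_neg_eq_add] at h2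
  rw [← h2]; simp

theorem eq_of_commute_of_cyclic (f : V →ₗ[K] V) (n : ℕ) (hn : finrank K V = n) (hf : f ^ n = 0)
    (hker : finrank K (LinearMap.ker f) ≤ 1) (v : V) (hv : (f ^ (n - 1)) v ≠ 0)
    (X Y : V →ₗ[K] V) (hX : ∀ x, X (f x) = f (X x)) (hY : ∀ x, Y (f x) = f (Y x)) (h : X v = Y v) :
    X = Y := by
  have hcomm : ∀ (X : V →ₗ[K] V), (∀ x, X (f x) = f (X x)) → ∀ (k : ℕ) x, X ((f ^ k) x) = (f ^ k) (X x) := by
    intro X hX k
    induction k with
    | zero => intro x; simp
    | succ k ih => intro x; rw [pow_succ', Module.End.mul_apply, Module.End.mul_apply, hX, ih]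
  apply (cyclicBasis f n hn hf hker v hv).ext
  intro i
  rw [cyclicBasis_apply, hcomm X hX, hcomm Y hY, h]

theorem exists_aeval_eq_of_commute (f : V →ₗ[K] V) (n : ℕ) (hn : finrank K V = n) (hf : f ^ n = 0)
    (hker : finrank K (LinearMap.ker f) ≤ 1) (hn1 : 1 ≤ n)
    (X : V →ₗ[K] V) (hX : ∀ x, X (f x) = f (X x)) : ∃ p : K[X], X = aeval f p := by
  obtain ⟨v, hv⟩ := exists_cyclic f n hn hn1 hker
  let b := cyclicBasis f n hn hf hker v hv
  let p : K[X] := ∑ i : Fin n, C (b.repr (X v) i) * Polynomial.X ^ (i : ℕ)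
  refine ⟨p, ?_⟩
  apply eq_of_commute_of_cyclic f n hn hf hker v hv X (aeval f p) hX
  · intro x
    have : Commute (aeval f p) f := by
      have h1 : aeval f (Polynomial.X : K[X]) = f := aeval_X f
      have h2 : Commute (aeval f p) (aeval f (Polynomial.X : K[X])) := by
        unfold Commute SemiconjBy
        rw [← map_mul, ← map_mul, mul_comm]
      rwa [h1] at h2
    exact LinearMap.congr_fun this.eq x
  · conv_lhs => rw [← b.sum_repr (X v)]
    simp only [p, map_sum, map_mul, aeval_C, map_pow, aeval_X, LinearMap.sum_apply, Module.End.mul_apply,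
      Module.algebraMap_end_apply]
    apply Finset.sum_congr rfl
    intro i _
    rw [cyclicBasis_apply]

theorem det_of_commute_regular_nilpotent (f : V →ₗ[K] V) (n : ℕ) (hn : finrank K V = n) (hf : f ^ n = 0)
    (hker : finrank K (LinearMap.ker f) ≤ 1) (hn1 : 1 ≤ n)
    (X : V →ₗ[K] V) (hX : ∀ x, X (f x) = f (X x)) : ∃ c : K, LinearMap.det X = c ^ n := by
  obtain ⟨p, rfl⟩ := exists_aeval_eq_of_commute f n hn hf hker hn1 X hX
  refine ⟨p.coeff 0, ?_⟩
  have h1 : aeval f p = algebraMap K (Module.End K V) (p.coeff 0) + aeval f (p.divX * Polynomial.X) := by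
    conv_lhs => rw [← Polynomial.divX_mul_X_add p]
    rw [map_add, aeval_C, add_comm]
  have h2 : IsNilpotent (aeval f (p.divX * Polynomial.X)) := by
    refine ⟨n, ?_⟩
    rw [← map_pow, mul_pow, map_mul, map_pow _ Polynomial.X, aeval_X, hf, mul_zero]
  rw [h1, det_algebraMap_add_nilpotent _ _ h2, hn]

/-- Two regular nilpotent endomorphisms are conjugate. -/
theorem exists_equiv_intertwining (f f' : V →ₗ[K] V) (n : ℕ) (hn : finrank K V = n) (hn1 : 1 ≤ n)
    (hf : f ^ n = 0) (hker : finrank K (LinearMap.ker f) ≤ 1)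
    (hf' : f' ^ n = 0) (hker' : finrank K (LinearMap.ker f') ≤ 1) :
    ∃ X : V ≃ₗ[K] V, ∀ x, X (f x) = f' (X x) := by
  obtain ⟨v, hv⟩ := exists_cyclic f n hn hn1 hker
  obtain ⟨w, hw⟩ := exists_cyclic f' n hn hn1 hker'
  let bv := cyclicBasis f n hn hf hker v hv
  let bw := cyclicBasis f' n hn hf' hker' w hw
  let X : V ≃ₗ[K] V := bv.equiv bw (Equiv.refl _)
  have hXb : ∀ i : Fin n, X ((f ^ (i : ℕ)) v) = (f' ^ (i : ℕ)) w := by
    intro i
    have := bv.equiv_apply (b' := bw) i (Equiv.refl _)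
    simpa [bv, bw, cyclicBasis_apply, X] using this
  refine ⟨X, ?_⟩
  have : (X : V →ₗ[K] V) ∘ₗ f = f' ∘ₗ (X : V →ₗ[K] V) := by
    apply bv.ext
    intro i
    simp only [bv, cyclicBasis_apply, LinearMap.comp_apply, LinearEquiv.coe_coe]
    rw [hXb i]
    by_cases hi : (i : ℕ) + 1 < n
    · have := hXb ⟨i + 1, hi⟩
      simp only [pow_succ', Module.End.mul_apply] at this
      exact this
    · have hi' : (i : ℕ) + 1 = n := by have := i.2; omega
      have h0 : f ((f ^ (i : ℕ)) v) = 0 := by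
        rw [← Module.End.mul_apply, ← pow_succ', hi', hf]; rfl
      have h0' : f' ((f' ^ (i : ℕ)) w) = 0 := by
        rw [← Module.End.mul_apply, ← pow_succ', hi', hf']; rfl
      rw [h0, h0', map_zero]
  intro x
  exact LinearMap.congr_fun this x

end

end Cfsg.Agent.Lib.Helper43
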