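import Cfsg.Agent.Lib.Helper43.RegNilp3
import Cfsg.Agent.Lib.Helper43.GLEquiv

set_option autoImplicit false

namespace Cfsg.Agent.Lib.Helper43

open Module Matrix

section
variable {n : ℕ} {F : Type*} [Field F]

/-- regular unipotent matrices -/
def RegUnip (A : Matrix (Fin n) (Fin n) F) : Prop := (A - 1) ^ n = 0 ∧ (A - 1).rank = n - 1

theorem RegUnip.pow_eq_zero {A : Matrix (Fin n) (Fin n) F} (h : RegUnip A) :
    (Matrix.mulVecLin (A - 1)) ^ n = 0 := by
  rw [← mulVecLin_pow', h.1]; simp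

theorem RegUnip.finrank_ker_le {A : Matrix (Fin n) (Fin n) F} (h : RegUnip A) :
    finrank F (LinearMap.ker (Matrix.mulVecLin (A - 1))) ≤ 1 := by
  have := finrank_ker_mulVecLin (A - 1)
  rw [Fintype.card_fin, h.2] at this
  omega

theorem RegUnip.conj {A : Matrix (Fin n) (Fin n) F} (h : RegUnip A) (g : GL (Fin n) F) :
    RegUnip ((g : Matrix (Fin n) (Fin n) F) * A * ((g⁻¹ : GL (Fin n) F) : Matrix (Fin n) (Fin n) F)) := by
  have hg1 : (g : Matrix (Fin n) (Fin n) F) * ((g⁻¹ : GL (Fin n) F) : Matrix (Fin n) (Fin n) F) = 1 := by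
    rw [← Matrix.GeneralLinearGroup.coe_mul, mul_inv_cancel]; rfl
  have hg2 : ((g⁻¹ : GL (Fin n) F) : Matrix (Fin n) (Fin n) F) * (g : Matrix (Fin n) (Fin n) F) = 1 := by
    rw [← Matrix.GeneralLinearGroup.coe_mul, inv_mul_cancel]; rfl
  have e : (g : Matrix (Fin n) (Fin n) F) * A * ((g⁻¹ : GL (Fin n) F) : Matrix (Fin n) (Fin n) F) - 1 =
      (g : Matrix (Fin n) (Fin n) F) * (A - 1) * ((g⁻¹ : GL (Fin n) F) : Matrix (Fin n) (Fin n) F) := by
    rw [mul_sub, sub_mul, mul_one, hg1]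
  have hpow : ∀ k : ℕ, ((g : Matrix (Fin n) (Fin n) F) * (A - 1) * ((g⁻¹ : GL (Fin n) F) : Matrix (Fin n) (Fin n) F)) ^ k
      = (g : Matrix (Fin n) (Fin n) F) * (A - 1) ^ k * ((g⁻¹ : GL (Fin n) F) : Matrix (Fin n) (Fin n) F) := by
    intro k
    induction k with
    | zero => simp
    | succ k ih =>
      rw [pow_succ, ih, pow_succ]
      calc (g : Matrix (Fin n) (Fin n) F) * (A - 1) ^ k * ((g⁻¹ : GL (Fin n) F) : Matrix (Fin n) (Fin n) F) *
            ((g : Matrix (Fin n) (Fin n) F) * (A - 1) * ((g⁻¹ : GL (Fin n) F) : Matrix (Fin n) (Fin n) F))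
          = (g : Matrix (Fin n) (Fin n) F) * (A - 1) ^ k * (((g⁻¹ : GL (Fin n) F) : Matrix (Fin n) (Fin n) F) *
            (g : Matrix (Fin n) (Fin n) F)) * (A - 1) * ((g⁻¹ : GL (Fin n) F) : Matrix (Fin n) (Fin n) F) := by
              simp only [mul_assoc]
        _ = _ := by rw [hg2, mul_one]; simp only [mul_assoc]
  constructor
  · rw [e, hpow, h.1]; simp
  · rw [e, Matrix.rank_mul_eq_left_of_isUnit_det _ _ ((Matrix.isUnit_iff_isUnit_det _).1 (g⁻¹).isUnit),
      Matrix.rank_mul_eq_right_of_isUnit_det _ _ ((Matrix.isUnit_iff_isUnit_det _).1 g.isUnit), h.2]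

/-- two regular unipotent matrices are conjugate in `GL`. -/
theorem RegUnip.exists_conj (hn : 1 ≤ n) {A A' : Matrix (Fin n) (Fin n) F} (h : RegUnip A) (h' : RegUnip A') :
    ∃ g : GL (Fin n) F, (g : Matrix (Fin n) (Fin n) F) * A = A' * (g : Matrix (Fin n) (Fin n) F) := by
  let f : (Fin n → F) →ₗ[F] (Fin n → F) := Matrix.mulVecLin (A - 1)
  let f' : (Fin n → F) →ₗ[F] (Fin n → F) := Matrix.mulVecLin (A' - 1)
  obtain ⟨X, hX⟩ := exists_equiv_intertwining f f' n (by simp) hn h.pow_eq_zero h.finrank_ker_le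
    h'.pow_eq_zero h'.finrank_ker_le
  refine ⟨glEquiv.symm X, ?_⟩
  have h1 : ((glEquiv.symm X : GL (Fin n) F) : Matrix (Fin n) (Fin n) F) * (A - 1) =
      (A' - 1) * ((glEquiv.symm X : GL (Fin n) F) : Matrix (Fin n) (Fin n) F) := by
    apply mulVec_ext
    intro x
    rw [← Matrix.mulVec_mulVec, ← Matrix.mulVec_mulVec, glEquiv_symm_mulVec, glEquiv_symm_mulVec]
    exact hX x
  rw [mul_sub, sub_mul, mul_one, one_mul] at h1
  exact sub_left_injective h1

/-- the determinant of a matrix commuting with a regular unipotent matrix is an `n`-th power. -/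
theorem RegUnip.det_of_commute (hn : 1 ≤ n) {A : Matrix (Fin n) (Fin n) F} (h : RegUnip A)
    (B : Matrix (Fin n) (Fin n) F) (hB : B * A = A * B) : ∃ c : F, B.det = c ^ n := by
  let f : (Fin n → F) →ₗ[F] (Fin n → F) := Matrix.mulVecLin (A - 1)
  let X : (Fin n → F) →ₗ[F] (Fin n → F) := Matrix.toLin' B
  obtain ⟨c, hc⟩ := det_of_commute_regular_nilpotent f n (by simp) h.pow_eq_zero h.finrank_ker_le hn X (by
    intro x
    show B *ᵥ ((A - 1) *ᵥ x) = (A - 1) *ᵥ (B *ᵥ x)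
    rw [Matrix.mulVec_mulVec, Matrix.mulVec_mulVec, mul_sub, sub_mul, hB, mul_one, one_mul])
  exact ⟨c, by rw [← hc, LinearMap.det_toLin']⟩

end

end Cfsg.Agent.Lib.Helper43
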