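import Mathlib

set_option autoImplicit false

namespace Cfsg.Agent.Lib.Helper43

open Module Polynomial

/-- A `K[X]`-module carries a left-nondegenerate `K`-bilinear form for which the action of every polynomial
is self-adjoint. -/
def HasSelfAdjForm (K : Type*) [Field K] (M : Type*) [AddCommGroup M] [Module K[X] M] : Prop :=
  ∃ β : M → M → K, (∀ x x' y, β (x + x') y = β x y + β x' y) ∧ (∀ x y y', β x (y + y') = β x y + β x y') ∧
    (∀ (p : K[X]) x y, β (p • x) y = β x (p • y)) ∧ (∀ c x y, β (C c • x) y = c * β x y) ∧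
    (∀ x, x ≠ 0 → ∃ y, β x y ≠ 0)

section
variable {K : Type*} [Field K]

theorem HasSelfAdjForm.of_equiv {M M' : Type*} [AddCommGroup M] [Module K[X] M] [AddCommGroup M']
    [Module K[X] M'] (e : M ≃ₗ[K[X]] M') (h : HasSelfAdjForm K M') : HasSelfAdjForm K M := by
  obtain ⟨β, h1, h2, h3, h4, h5⟩ := h
  refine ⟨fun x y => β (e x) (e y), ?_, ?_, ?_, ?_, ?_⟩
  · intro x x' y; simp only [map_add, h1]
  · intro x y y'; simp only [map_add, h2]
  · intro p x y; simp only [map_smul, h3]
  · intro c x y; simp only [map_smul, h4]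
  · intro x hx
    obtain ⟨y, hy⟩ := h5 (e x) (by simpa using hx)
    exact ⟨e.symm y, by simpa using hy⟩

theorem HasSelfAdjForm.directSum {ι : Type*} [Fintype ι] [DecidableEq ι] (Q : ι → Type*)
    [∀ i, AddCommGroup (Q i)] [∀ i, Module K[X] (Q i)] (h : ∀ i, HasSelfAdjForm K (Q i)) :
    HasSelfAdjForm K (DirectSum ι Q) := by
  choose β h1 h2 h3 h4 h5 using h
  have hz : ∀ i x, β i x 0 = 0 := by
    intro i x
    have := h2 i x 0 0
    rw [add_zero] at this
    simpa using this
  refine ⟨fun x y => ∑ i, β i (x i) (y i), ?_, ?_, ?_, ?_, ?_⟩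
  · intro x x' y
    simp only [DirectSum.add_apply, h1, Finset.sum_add_distrib]
  · intro x y y'
    simp only [DirectSum.add_apply, h2, Finset.sum_add_distrib]
  · intro p x y
    simp only [DirectSum.smul_apply, h3]
  · intro c x y
    simp only [DirectSum.smul_apply, h4, Finset.mul_sum]
  · intro x hx
    obtain ⟨i, hi⟩ : ∃ i, x i ≠ 0 := by
      by_contra hcon
      push Not at hcon
      exact hx (DFinsupp.ext hcon)
    obtain ⟨y, hy⟩ := h5 i (x i) hi
    refine ⟨DirectSum.of Q i y, ?_⟩
    beta_reduce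
    rw [Finset.sum_eq_single i]
    · rw [DirectSum.of_eq_same]; exact hy
    · intro j _ hj
      rw [DirectSum.of_eq_of_ne _ _ _ hj, hz]
    · simp

/-- the cyclic module `K[X]/(g)`, `g` monic. -/
theorem HasSelfAdjForm.quotient_monic (g : K[X]) (hg : g.Monic) :
    HasSelfAdjForm K (K[X] ⧸ (K[X] ∙ g)) := by
  classical
  set d := g.natDegree with hd
  let out : (K[X] ⧸ (K[X] ∙ g)) → K[X] := Function.surjInv (Submodule.Quotient.mk_surjective (K[X] ∙ g))
  have hout : ∀ x, Submodule.Quotient.mk (out x) = x :=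
    Function.surjInv_eq (Submodule.Quotient.mk_surjective (K[X] ∙ g))
  have hcong : ∀ a : K[X], g ∣ out (Submodule.Quotient.mk a) - a := by
    intro a
    have := hout (Submodule.Quotient.mk a)
    rw [Submodule.Quotient.eq, Submodule.mem_span_singleton] at this
    obtain ⟨c, hc⟩ := this
    exact ⟨c, by rw [← hc, smul_eq_mul, mul_comm]⟩
  let β : (K[X] ⧸ (K[X] ∙ g)) → (K[X] ⧸ (K[X] ∙ g)) → K := fun x y => ((out x * out y) %ₘ g).coeff (d - 1)
  have hβ : ∀ a b : K[X], β (Submodule.Quotient.mk a) (Submodule.Quotient.mk b) = ((a * b) %ₘ g).coeff (d - 1) := by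
    intro a b
    simp only [β]
    congr 1
    apply Polynomial.modByMonic_eq_of_dvd_sub hg
    have h1 := hcong a
    have h2 := hcong b
    have : out (Submodule.Quotient.mk a) * out (Submodule.Quotient.mk b) - a * b =
      (out (Submodule.Quotient.mk a) - a) * out (Submodule.Quotient.mk b) +
        a * (out (Submodule.Quotient.mk b) - b) := by ring
    rw [this]
    exact dvd_add (Dvd.dvd.mul_right h1 _) (Dvd.dvd.mul_left h2 _)
  refine ⟨β, ?_, ?_, ?_, ?_, ?_⟩
  · intro x x' y
    obtain ⟨a, rfl⟩ := Submodule.Quotient.mk_surjective _ x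
    obtain ⟨a', rfl⟩ := Submodule.Quotient.mk_surjective _ x'
    obtain ⟨b, rfl⟩ := Submodule.Quotient.mk_surjective _ y
    rw [← Submodule.Quotient.mk_add, hβ, hβ, hβ, add_mul, Polynomial.add_modByMonic, Polynomial.coeff_add]
  · intro x y y'
    obtain ⟨a, rfl⟩ := Submodule.Quotient.mk_surjective _ x
    obtain ⟨b, rfl⟩ := Submodule.Quotient.mk_surjective _ y
    obtain ⟨b', rfl⟩ := Submodule.Quotient.mk_surjective _ y'
    rw [← Submodule.Quotient.mk_add, hβ, hβ, hβ, mul_add, Polynomial.add_modByMonic, Polynomial.coeff_add]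
  · intro p x y
    obtain ⟨a, rfl⟩ := Submodule.Quotient.mk_surjective _ x
    obtain ⟨b, rfl⟩ := Submodule.Quotient.mk_surjective _ y
    rw [← Submodule.Quotient.mk_smul, ← Submodule.Quotient.mk_smul, hβ, hβ, smul_eq_mul, smul_eq_mul]
    congr 2
    ring
  · intro c x y
    obtain ⟨a, rfl⟩ := Submodule.Quotient.mk_surjective _ x
    obtain ⟨b, rfl⟩ := Submodule.Quotient.mk_surjective _ y
    rw [← Submodule.Quotient.mk_smul, hβ, hβ, smul_eq_mul, mul_assoc, ← Polynomial.smul_eq_C_mul,
      Polynomial.smul_modByMonic, Polynomial.coeff_smul, smul_eq_mul]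
  · intro x hx
    obtain ⟨a, rfl⟩ := Submodule.Quotient.mk_surjective _ x
    set r := a %ₘ g with hr
    have hr0 : r ≠ 0 := by
      intro h0
      apply hx
      rw [Submodule.Quotient.mk_eq_zero, Submodule.mem_span_singleton]
      obtain ⟨c, hc⟩ := (Polynomial.modByMonic_eq_zero_iff_dvd hg).1 h0
      exact ⟨c, by rw [hc, smul_eq_mul, mul_comm]⟩
    have hdeg : r.degree < g.degree := Polynomial.degree_modByMonic_lt a hg
    have hnat : r.natDegree < d := Polynomial.natDegree_lt_natDegree hr0 hdeg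
    refine ⟨Submodule.Quotient.mk (X ^ (d - 1 - r.natDegree)), ?_⟩
    rw [hβ]
    have h1 : (a * X ^ (d - 1 - r.natDegree)) %ₘ g = r * X ^ (d - 1 - r.natDegree) := by
      have h2 : (a * X ^ (d - 1 - r.natDegree)) %ₘ g = (r * X ^ (d - 1 - r.natDegree)) %ₘ g := by
        apply Polynomial.modByMonic_eq_of_dvd_sub hg
        rw [← sub_mul]
        apply Dvd.dvd.mul_right
        have := Polynomial.modByMonic_add_div a g
        exact ⟨a /ₘ g, by rw [hr]; linear_combination -this⟩
      rw [h2, Polynomial.modByMonic_eq_self_iff hg]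
      rw [Polynomial.degree_mul, Polynomial.degree_X_pow, Polynomial.degree_eq_natDegree hr0,
        Polynomial.degree_eq_natDegree hg.ne_zero]
      norm_cast
      omega
    rw [h1]
    obtain ⟨k, hk⟩ : ∃ k, d - 1 = r.natDegree + k := ⟨d - 1 - r.natDegree, by omega⟩
    have h3 : d - 1 - r.natDegree = k := by omega
    rw [h3, hk, Polynomial.coeff_mul_X_pow]
    exact Polynomial.leadingCoeff_ne_zero.2 hr0

theorem HasSelfAdjForm.quotient (f : K[X]) (hf : f ≠ 0) :
    HasSelfAdjForm K (K[X] ⧸ (K[X] ∙ f)) := by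
  have hg := Polynomial.monic_mul_leadingCoeff_inv hf
  have hspan : (K[X] ∙ f) = (K[X] ∙ (f * C (leadingCoeff f)⁻¹)) := by
    have hu : IsUnit (C (leadingCoeff f)⁻¹) := by
      rw [Polynomial.isUnit_C]
      exact (inv_ne_zero (Polynomial.leadingCoeff_ne_zero.2 hf)).isUnit
    exact (Ideal.span_singleton_mul_right_unit hu f).symm
  exact HasSelfAdjForm.of_equiv (Submodule.quotEquivOfEq _ _ hspan) (HasSelfAdjForm.quotient_monic _ hg)

/-- every finite-dimensional `K[X]`-module coming from an endomorphism has a self-adjoint form. -/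
theorem HasSelfAdjForm.aeval {V : Type*} [AddCommGroup V] [Module K V] [FiniteDimensional K V]
    (φ : V →ₗ[K] V) : HasSelfAdjForm K (Module.AEval' φ) := by
  classical
  have htors : Module.IsTorsion K[X] (Module.AEval' φ) := Module.AEval.isTorsion_of_finiteDimensional K V φ
  obtain ⟨ι, _, p, hp, e, ⟨l⟩⟩ := Module.equiv_directSum_of_isTorsion htors
  exact HasSelfAdjForm.of_equiv l (HasSelfAdjForm.directSum _ (fun i =>
    HasSelfAdjForm.quotient _ (pow_ne_zero _ (hp i).ne_zero)))

/-- A linear endomorphism of a finite-dimensional space is self-adjoint for some bilinear form which is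
left-nondegenerate. -/
theorem exists_selfAdjoint_bilinForm {V : Type*} [AddCommGroup V] [Module K V] [FiniteDimensional K V]
    (φ : V →ₗ[K] V) : ∃ B : LinearMap.BilinForm K V, (∀ x y, B (φ x) y = B x (φ y)) ∧
      ∀ x, x ≠ 0 → ∃ y, B x y ≠ 0 := by
  obtain ⟨β, h1, h2, h3, h4, h5⟩ := HasSelfAdjForm.aeval φ
  let o := Module.AEval'.of φ
  have hC : ∀ (c : K) (x : V), o (c • x) = C c • o x := by
    intro c x
    rw [Module.AEval.C_smul, map_smul]
  let B : LinearMap.BilinForm K V := LinearMap.mk₂ K (fun x y => β (o x) (o y))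
    (by intro x x' y; simp only [map_add, h1])
    (by intro c x y; rw [hC, h4, smul_eq_mul])
    (by intro x y y'; simp only [map_add, h2])
    (by intro c x y; rw [hC, ← h3, h4, smul_eq_mul])
  refine ⟨B, ?_, ?_⟩
  · intro x y
    show β (o (φ x)) (o y) = β (o x) (o (φ y))
    rw [← Module.AEval'.X_smul_of, ← Module.AEval'.X_smul_of, h3]
  · intro x hx
    obtain ⟨y, hy⟩ := h5 (o x) (by simpa using hx)
    exact ⟨o.symm y, by
      show β (o x) (o (o.symm y)) ≠ 0
      rw [LinearEquiv.apply_symm_apply]; exact hy⟩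

/-- A square matrix over a field is similar to its transpose. -/
theorem isConj_transpose {ι : Type*} [Fintype ι] [DecidableEq ι] (A : Matrix ι ι K) :
    IsConj A A.transpose := by
  obtain ⟨B, hB1, hB2⟩ := exists_selfAdjoint_bilinForm (Matrix.toLin' A)
  let S : Matrix ι ι K := LinearMap.BilinForm.toMatrix' B
  have hS : ∀ x y, B x y = x ⬝ᵥ S.mulVec y := by
    intro x y
    rw [← Matrix.toBilin'_apply', Matrix.toBilin'_toMatrix']
  have hdet : S.det ≠ 0 := by
    intro h0
    obtain ⟨v, hv, hv0⟩ := Matrix.exists_vecMul_eq_zero_iff.2 h0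
    obtain ⟨y, hy⟩ := hB2 v hv
    apply hy
    rw [hS, Matrix.dotProduct_mulVec, hv0, zero_dotProduct]
  have hcomm : S * A = A.transpose * S := by
    apply (Matrix.toBilin' (R₁ := K)).injective
    apply LinearMap.ext
    intro x
    apply LinearMap.ext
    intro y
    rw [Matrix.toBilin'_apply', Matrix.toBilin'_apply', ← Matrix.mulVec_mulVec, ← Matrix.mulVec_mulVec,
      ← hS, Matrix.dotProduct_mulVec, Matrix.vecMul_transpose, ← hS]
    exact (hB1 x y).symm
  refine ⟨(Matrix.nonsingInvUnit S (Ne.isUnit hdet)), ?_⟩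
  exact hcomm

end

end Cfsg.Agent.Lib.Helper43
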