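import Cfsg.Agent.Lib.Helper43.Transv

set_option autoImplicit false

namespace Cfsg.Agent.Lib.Helper43

open Module

section
variable (K V : Type*) [Field K] [AddCommGroup V] [Module K V]

/-- pairs (nonzero vector, nonzero functional vanishing on it) -/
def Flag : Type _ := {p : V × Dual K V // p.1 ≠ 0 ∧ p.2 ≠ 0 ∧ p.2 p.1 = 0}

variable {K V}

noncomputable instance flagAction : MulAction (V ≃ₗ[K] V) (Flag K V) where
  smul g p := ⟨(g p.1.1, p.1.2 ∘ₗ (g.symm : V →ₗ[K] V)), by
    refine ⟨?_, ?_, ?_⟩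
    · simpa using p.2.1
    · intro h
      apply p.2.2.1
      ext x
      have := LinearMap.congr_fun h (g x)
      simpa using this
    · simpa using p.2.2.2⟩
  one_smul p := by
    apply Subtype.ext
    rfl
  mul_smul g h p := by
    apply Subtype.ext
    rfl

theorem flag_smul_fst (g : V ≃ₗ[K] V) (p : Flag K V) : (g • p).1.1 = g p.1.1 := rfl
theorem flag_smul_snd (g : V ≃ₗ[K] V) (p : Flag K V) : (g • p).1.2 = p.1.2 ∘ₗ (g.symm : V →ₗ[K] V) := rfl

theorem card_ne_zero [Fintype K] (W : Type*) [AddCommGroup W] [Module K W] [FiniteDimensional K W] :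
    Nat.card {w : W // w ≠ 0} = Fintype.card K ^ finrank K W - 1 := by
  classical
  have : Finite W := Module.finite_of_finite K
  have : Fintype W := Fintype.ofFinite W
  rw [Nat.card_eq_fintype_card, Fintype.card_subtype_compl, Module.card_eq_pow_finrank (K := K) (V := W)]
  simp

variable [FiniteDimensional K V]

theorem flag_transitive (p p' : Flag K V) : ∃ g : V ≃ₗ[K] V, g • p = p' := by
  obtain ⟨g, h1, h2⟩ := exists_equiv_of_flags p.1.1 p'.1.1 p.1.2 p'.1.2 p.2.1 p'.2.1 p.2.2.1 p'.2.2.1
    p.2.2.2 p'.2.2.2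
  refine ⟨g, ?_⟩
  apply Subtype.ext
  apply Prod.ext
  · exact h1
  · rw [flag_smul_snd]
    ext y
    have := h2 (g.symm y)
    simpa using this.symm

theorem card_flag [Fintype K] (n : ℕ) (hn : finrank K V = n) :
    Nat.card (Flag K V) = (Fintype.card K ^ n - 1) * (Fintype.card K ^ (n - 1) - 1) := by
  classical
  have : Finite V := Module.finite_of_finite K
  have : Finite (Dual K V) := Module.finite_of_finite K
  have : Fintype {x : V // x ≠ 0} := Fintype.ofFinite _
  let e : Flag K V ≃ Σ (x : {x : V // x ≠ 0}), {χ : Dual K V // χ ≠ 0 ∧ χ x.1 = 0} :=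
    { toFun := fun p => ⟨⟨p.1.1, p.2.1⟩, ⟨p.1.2, p.2.2.1, p.2.2.2⟩⟩
      invFun := fun s => ⟨(s.1.1, s.2.1), s.1.2, s.2.2.1, s.2.2.2⟩
      left_inv := fun p => rfl
      right_inv := fun s => rfl }
  rw [Nat.card_congr e, Nat.card_sigma]
  have hfib : ∀ x : {x : V // x ≠ 0}, Nat.card {χ : Dual K V // χ ≠ 0 ∧ χ x.1 = 0} =
      Fintype.card K ^ (n - 1) - 1 := by
    intro x
    let ev : Dual K (Dual K V) := Module.Dual.eval K V x.1
    have hev : ev ≠ 0 := by
      obtain ⟨χ, hχ⟩ := exists_dual_eq_one (K := K) x.1 x.2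
      intro h
      have := LinearMap.congr_fun h χ
      simp [ev, hχ] at this
    have h1 := Module.Dual.finrank_ker_add_one_of_ne_zero hev
    rw [Subspace.dual_finrank_eq, hn] at h1
    have h2 := card_ne_zero (K := K) (LinearMap.ker ev)
    have h3 : finrank K (LinearMap.ker ev) = n - 1 := by omega
    rw [h3] at h2
    rw [← h2]
    refine Nat.card_congr ?_
    exact
      { toFun := fun χ => ⟨⟨χ.1, χ.2.2⟩, fun h => χ.2.1 (congrArg Subtype.val h)⟩
        invFun := fun ψ => ⟨ψ.1.1, fun h => ψ.2 (Subtype.ext h), ψ.1.2⟩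
        left_inv := fun χ => rfl
        right_inv := fun ψ => rfl }
  simp_rw [hfib]
  rw [Finset.sum_const, Finset.card_univ, ← Nat.card_eq_fintype_card, card_ne_zero (K := K) V, hn, smul_eq_mul]

/-- the order of the commutant in `GL(V)` of the transvection `x ↦ x + φ x • a`. -/
theorem card_centralizer_transvection [Fintype K] (n : ℕ) (hn : finrank K V = n) (a : V) (φ : Dual K V)
    (ha : a ≠ 0) (hφ : φ ≠ 0) (hφa : φ a = 0) :
    Nat.card {g : V ≃ₗ[K] V // ∀ x, g (x + φ x • a) = g x + φ (g x) • a} *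
      ((Fintype.card K ^ n - 1) * (Fintype.card K ^ (n - 1) - 1)) =
      (Fintype.card K - 1) * Nat.card (V ≃ₗ[K] V) := by
  classical
  let p0 : Flag K V := ⟨(a, φ), ha, hφ, hφa⟩
  -- orbit-stabiliser
  have h1 : Nat.card (V ≃ₗ[K] V) = Nat.card (Flag K V) * Nat.card (MulAction.stabilizer (V ≃ₗ[K] V) p0) := by
    rw [← Nat.card_congr (MulAction.orbitProdStabilizerEquivGroup (V ≃ₗ[K] V) p0), Nat.card_prod]
    congr 1
    have : MulAction.orbit (V ≃ₗ[K] V) p0 = Set.univ := by
      ext p
      simp only [Set.mem_univ, iff_true]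
      obtain ⟨g, hg⟩ := flag_transitive p0 p
      exact ⟨g, hg⟩
    rw [this]
    exact Nat.card_congr (Equiv.Set.univ _)
  have hstab : ∀ s : V ≃ₗ[K] V, s ∈ MulAction.stabilizer (V ≃ₗ[K] V) p0 ↔ (s a = a ∧ ∀ x, φ (s x) = φ x) := by
    intro s
    rw [MulAction.mem_stabilizer_iff]
    constructor
    · intro h
      have h2 : s a = a := congrArg (fun p : Flag K V => p.1.1) h
      have h3 : φ ∘ₗ (s.symm : V →ₗ[K] V) = φ := congrArg (fun p : Flag K V => p.1.2) h
      refine ⟨h2, fun x => ?_⟩
      have := LinearMap.congr_fun h3 (s x)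
      simpa using this.symm
    · rintro ⟨h2, h3⟩
      apply Subtype.ext
      apply Prod.ext
      · exact h2
      · rw [flag_smul_snd]
        ext y
        have := h3 (s.symm y)
        simpa using this.symm
  obtain ⟨x0, hx0⟩ : ∃ x0, φ x0 = 1 := by
    obtain ⟨x, hx⟩ : ∃ x, φ x ≠ 0 := by
      by_contra h; push Not at h; exact hφ (LinearMap.ext h)
    exact ⟨(φ x)⁻¹ • x, by simp [hx]⟩
  -- the commutant is `Kˣ × stabiliser`
  have h2 : Nat.card {g : V ≃ₗ[K] V // ∀ x, g (x + φ x • a) = g x + φ (g x) • a} =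
      (Fintype.card K - 1) * Nat.card (MulAction.stabilizer (V ≃ₗ[K] V) p0) := by
    rw [← Fintype.card_units, ← Nat.card_eq_fintype_card, ← Nat.card_prod]
    refine (Nat.card_congr (Equiv.ofBijective
      (fun ls : Kˣ × MulAction.stabilizer (V ≃ₗ[K] V) p0 =>
        (⟨ls.2.1.trans (LinearEquiv.smulOfUnit ls.1), ?_⟩ :
          {g : V ≃ₗ[K] V // ∀ x, g (x + φ x • a) = g x + φ (g x) • a})) ⟨?_, ?_⟩)).symm
    · intro x
      obtain ⟨h3, h4⟩ := (hstab _).1 ls.2.2
      show ls.1 • ls.2.1 (x + φ x • a) = ls.1 • ls.2.1 x + φ (ls.1 • ls.2.1 x) • a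
      rw [map_add, map_smul, h3, smul_add, Units.smul_def, Units.smul_def, map_smul, h4, smul_eq_mul,
        smul_smul, mul_comm]
    · rintro ⟨l, s, hs⟩ ⟨l', s', hs'⟩ h
      have h3 : ∀ x, l • s x = l' • s' x := by
        intro x
        exact congrArg (fun g : {g : V ≃ₗ[K] V // ∀ x, g (x + φ x • a) = g x + φ (g x) • a} => g.1 x) h
      have h4 := h3 a
      rw [((hstab _).1 hs).1, ((hstab _).1 hs').1] at h4
      have h5 : l = l' := by
        have h6 : ((l : K) - (l' : K)) • a = 0 := by
          rw [sub_smul]; exact sub_eq_zero.2 h4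
        have h7 := (smul_eq_zero.1 h6).resolve_right ha
        exact Units.ext (sub_eq_zero.1 h7)
      subst h5
      have h6 : s = s' := by
        ext x
        have := h3 x
        exact (smul_right_injective V l.ne_zero) this
      subst h6
      rfl
    · rintro ⟨g, hg⟩
      have hg' : ∀ x, φ x • g a = φ (g x) • a := by
        intro x
        have := hg x
        rw [map_add, map_smul] at this
        exact add_left_cancel this
      have h3 : g a = φ (g x0) • a := by
        have := hg' x0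
        rwa [hx0, one_smul] at this
      have hl : φ (g x0) ≠ 0 := by
        intro h0
        rw [h0, zero_smul] at h3
        exact ha (by simpa using h3)
      have h4 : ∀ x, φ (g x) = φ (g x0) * φ x := by
        intro x
        have := hg' x
        rw [h3, smul_smul] at this
        have h6 : (φ x * φ (g x0) - φ (g x)) • a = 0 := by
          rw [sub_smul]; exact sub_eq_zero.2 this
        have h7 := (smul_eq_zero.1 h6).resolve_right ha
        rw [← sub_eq_zero.1 h7, mul_comm]
      let l : Kˣ := Units.mk0 _ hl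
      let s : V ≃ₗ[K] V := g.trans (LinearEquiv.smulOfUnit l⁻¹)
      have hs : s ∈ MulAction.stabilizer (V ≃ₗ[K] V) p0 := by
        rw [hstab]
        constructor
        · show l⁻¹ • g a = a
          rw [h3]
          show l⁻¹ • ((l : K) • a) = a
          rw [← Units.smul_def, inv_smul_smul]
        · intro x
          show φ (l⁻¹ • g x) = φ x
          rw [Units.smul_def, map_smul, h4, smul_eq_mul]
          show ((l⁻¹ : Kˣ) : K) * ((l : K) * φ x) = φ x
          rw [← mul_assoc, Units.inv_mul, one_mul]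
      refine ⟨(l, ⟨s, hs⟩), ?_⟩
      apply Subtype.ext
      ext x
      show l • (l⁻¹ • g x) = g x
      rw [smul_inv_smul]
  rw [h2, h1, card_flag n hn]
  ring

end

end Cfsg.Agent.Lib.Helper43
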